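import Cfsg.Agent.Lib.H34.TCS6B.Data
import Cfsg.Agent.Lib.H35.TC
set_option autoImplicit false
set_option maxRecDepth 100000
set_option linter.all false
namespace H34.TCS6B
open H35.TC
/-- letters -/
inductive Lt | t0 | t1 | t2 | t3 | t4 | t5 | w
  deriving DecidableEq
/-- inverse letter -/
def inv : Lt → Lt
  | .t0 => .t0
  | .t1 => .t1
  | .t2 => .t2
  | .t3 => .t3
  | .t4 => .t4
  | .t5 => .t5
  | .w => .w
/-- table functions -/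
noncomputable def T : Lt → ℕ → ℕ
  | .t0 => T_t0
  | .t1 => T_t1
  | .t2 => T_t2
  | .t3 => T_t3
  | .t4 => T_t4
  | .t5 => T_t5
  | .w => T_w
/-- decoding of letter codes -/
def lt : ℕ → Lt
  | 0 => .t0
  | 1 => .t1
  | 2 => .t2
  | 3 => .t3
  | 4 => .t4
  | 5 => .t5
  | _ => .w
/-- Coxeter matrix (0: no relation) -/
def mm : Lt → Lt → ℕ
  | .t0, .t0 => 1
  | .t0, .t1 => 3
  | .t0, .w => 2
  | .t1, .t0 => 3
  | .t1, .t1 => 1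
  | .t1, .t2 => 3
  | .t1, .t4 => 3
  | .t1, .w => 2
  | .t2, .t1 => 3
  | .t2, .t2 => 1
  | .t2, .t3 => 3
  | .t2, .w => 2
  | .t3, .t2 => 3
  | .t3, .t3 => 1
  | .t3, .w => 2
  | .t4, .t1 => 3
  | .t4, .t4 => 1
  | .t4, .t5 => 3
  | .t4, .w => 2
  | .t5, .t4 => 3
  | .t5, .t5 => 1
  | .t5, .w => 2
  | .w, .t0 => 2
  | .w, .t1 => 2
  | .w, .t2 => 2
  | .w, .t3 => 2
  | .w, .t4 => 2
  | .w, .t5 => 2
  | .w, .w => 1
  | _, _ => 0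
/-- extra relators `w ^ n` -/
def extra : List (List Lt × ℕ) := [
  ([.t4, .t2, .t4, .t2, .w], 1),
  ([.t5, .t3, .t5, .t3, .w], 1),
  ([.t4, .t3, .t4, .t3, .w], 1),
  ([.t5, .t2, .t5, .t2, .w], 1),
  ([.t5, .t1, .t5, .t1, .w], 1),
  ([.t1, .t3, .t1, .t3, .w], 1),
  ([.t5, .t0, .t5, .t0, .w], 1),
  ([.t4, .t0, .t4, .t0, .w], 1),
  ([.t0, .t3, .t0, .t3, .w], 1),
  ([.t0, .t2, .t0, .t2, .w], 1)]
/-- relators -/
def rels : List (List Lt) := mkRels [(.w, .t5), (.w, .t4), (.w, .t3), (.w, .t2), (.w, .t1), (.w, .t0), (.t0, .t1), (.t2, .t3), (.t1, .t4), (.t4, .t5), (.t1, .t2), (.t0, .t0), (.t1, .t1), (.t2, .t2), (.t3, .t3), (.t4, .t4), (.t5, .t5), (.w, .w)] mm extra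
/-- subgroup words -/
def subs : List (List Lt) := [
  [.t0],
  [.t1],
  [.t2],
  [.t3],
  [.t4]]
noncomputable def dp_t0_0 (j u : ℕ) : Bool :=
  Bool.rec (motive := fun _ => Bool) (lF [T_t5, T_t0, T_w, T_t5] M (Nat.sub (T_t0 u) (Nat.mod (T_t0 u) M)) (Nat.mod (T_t0 u) M) u) (lF [T_w, T_t4, T_t0, T_t4] M (Nat.sub (T_t0 u) (Nat.mod (T_t0 u) M)) (Nat.mod (T_t0 u) M) u) (Nat.ble (nat_lit 10) j)
noncomputable def dp_t0_1 (j u : ℕ) : Bool :=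
  Bool.rec (motive := fun _ => Bool) (lH [] [] M (Nat.sub (T_t0 u) (Nat.mod (T_t0 u) M)) (Nat.mod (T_t0 u) M) u) (dp_t0_0 j u) (Nat.ble (nat_lit 9) j)
noncomputable def disp_t0 (j u : ℕ) : Bool :=
  Bool.rec (motive := fun _ => Bool) (Bool.rec (motive := fun _ => Bool) (lF [T_t2, T_w, T_t0, T_t2] M (Nat.sub (T_t0 u) (Nat.mod (T_t0 u) M)) (Nat.mod (T_t0 u) M) u) (Bool.rec (motive := fun _ => Bool) (lF [T_t3, T_w, T_t0, T_t3] M (Nat.sub (T_t0 u) (Nat.mod (T_t0 u) M)) (Nat.mod (T_t0 u) M) u) (lF1 T_t0 M (Nat.sub (T_t0 u) (Nat.mod (T_t0 u) M)) (Nat.mod (T_t0 u) M) u) (Nat.ble (nat_lit 2) j)) (Nat.ble (nat_lit 1) j)) (Bool.rec (motive := fun _ => Bool) (Bool.rec (motive := fun _ => Bool) (lF [T_t4, T_t0, T_w, T_t4] M (Nat.sub (T_t0 u) (Nat.mod (T_t0 u) M)) (Nat.mod (T_t0 u) M) u) (Bool.rec (motive := fun _ => Bool) (lDef P (nat_lit 0)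 (Nat.mod (T_t0 u) M) u) (lDef P (nat_lit 0) u (Nat.mod (T_t0 u) M)) (Nat.ble (nat_lit 5) j)) (Nat.ble (nat_lit 4) j)) (Bool.rec (motive := fun _ => Bool) (Bool.rec (motive := fun _ => Bool) (lF [T_t1, T_t0, T_t1, T_t0, T_t1] M (Nat.sub (T_t0 u) (Nat.mod (T_t0 u) M)) (Nat.mod (T_t0 u) M) u) (lF [T_w, T_t5, T_t0, T_t5] M (Nat.sub (T_t0 u) (Nat.mod (T_t0 u) M)) (Nat.mod (T_t0 u) M) u) (Nat.ble (nat_lit 7) j)) (dp_t0_1 j u) (Nat.ble (nat_lit 8) j)) (Nat.ble (nat_lit 6) j)) (Nat.ble (nat_lit 3) j)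
noncomputable def chk_t0 (j u : ℕ) : Bool :=
  Bool.rec (motive := fun _ => Bool) (disp_t0 j u) (Nat.ble (Nat.succ (MG u)) A) (Nat.ble A (T_t0 u))
noncomputable def dp_t1_0 (j u : ℕ) : Bool :=
  Bool.rec (motive := fun _ => Bool) (lF [T_t4, T_t1, T_t4, T_t1, T_t4] M (Nat.sub (T_t1 u) (Nat.mod (T_t1 u) M)) (Nat.mod (T_t1 u) M) u) (lH [] [] M (Nat.sub (T_t1 u) (Nat.mod (T_t1 u) M)) (Nat.mod (T_t1 u) M) u) (Nat.ble (nat_lit 8) j)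
noncomputable def disp_t1 (j u : ℕ) : Bool :=
  Bool.rec (motive := fun _ => Bool) (Bool.rec (motive := fun _ => Bool) (lF [T_t3, T_w, T_t1, T_t3] M (Nat.sub (T_t1 u) (Nat.mod (T_t1 u) M)) (Nat.mod (T_t1 u) M) u) (Bool.rec (motive := fun _ => Bool) (lF [T_w, T_t5, T_t1, T_t5] M (Nat.sub (T_t1 u) (Nat.mod (T_t1 u) M)) (Nat.mod (T_t1 u) M) u) (lDef P (nat_lit 1) (Nat.mod (T_t1 u) M) u) (Nat.ble (nat_lit 2) j)) (Nat.ble (nat_lit 1) j)) (Bool.rec (motive := fun _ => Bool) (Bool.rec (motive := fun _ => Bool) (lDef P (nat_lit 1) u (Nat.mod (T_t1 u) M)) (lF [T_t2, T_t1, T_t2, T_t1, T_t2] M (Nat.sub (T_t1 u) (Nat.mod (T_t1 u) M)) (Nat.mod (T_t1 u) M) u) (Nat.ble (nat_lit 4) j)) (Bool.rec (motive := fun _ => Bool) (Bool.rec (motive := fun _ => Bool) (lF [T_t0, T_t1, T_t0, T_t1, T_t0] M (Nat.sub (T_t1 u) (Nat.mod (T_t1 u) M)) (Nat.mod (T_t1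 u) M) u) (lF1 T_t1 M (Nat.sub (T_t1 u) (Nat.mod (T_t1 u) M)) (Nat.mod (T_t1 u) M) u) (Nat.ble (nat_lit 6) j)) (dp_t1_0 j u) (Nat.ble (nat_lit 7) j)) (Nat.ble (nat_lit 5) j)) (Nat.ble (nat_lit 3) j)
noncomputable def chk_t1 (j u : ℕ) : Bool :=
  Bool.rec (motive := fun _ => Bool) (disp_t1 j u) (Nat.ble (Nat.succ (MG u)) A) (Nat.ble A (T_t1 u))
noncomputable def dp_t2_0 (j u : ℕ) : Bool :=
  Bool.rec (motive := fun _ => Bool) (lF [T_t4, T_t2, T_w, T_t4] M (Nat.sub (T_t2 u) (Nat.mod (T_t2 u) M)) (Nat.mod (T_t2 u) M) u) (lF [T_t5, T_t2, T_w, T_t5] M (Nat.sub (T_t2 u) (Nat.mod (T_t2 u) M)) (Nat.mod (T_t2 u) M) u) (Nat.ble (nat_lit 10) j)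
noncomputable def dp_t2_1 (j u : ℕ) : Bool :=
  Bool.rec (motive := fun _ => Bool) (lH [] [] M (Nat.sub (T_t2 u) (Nat.mod (T_t2 u) M)) (Nat.mod (T_t2 u) M) u) (dp_t2_0 j u) (Nat.ble (nat_lit 9) j)
noncomputable def disp_t2 (j u : ℕ) : Bool :=
  Bool.rec (motive := fun _ => Bool) (Bool.rec (motive := fun _ => Bool) (lDef P (nat_lit 2) (Nat.mod (T_t2 u) M) u) (Bool.rec (motive := fun _ => Bool) (lDef P (nat_lit 2) u (Nat.mod (T_t2 u) M)) (lF [T_w, T_t0, T_t2, T_t0] M (Nat.sub (T_t2 u) (Nat.mod (T_t2 u) M)) (Nat.mod (T_t2 u) M) u) (Nat.ble (nat_lit 2) j)) (Nat.ble (nat_lit 1) j)) (Bool.rec (motive := fun _ => Bool) (Bool.rec (motive := fun _ => Bool) (lF [T_w, T_t5, T_t2, T_t5] M (Nat.sub (T_t2 u) (Nat.mod (T_t2 u) M)) (Nat.mod (T_t2 u) M) u) (Bool.rec (motive := fun _ => Bool) (lF [T_w, T_t4, T_t2, T_t4] M (Nat.sub (T_t2 u) (Nat.mod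 (T_t2 u) M)) (Nat.mod (T_t2 u) M) u) (lF [T_t3, T_t2, T_t3, T_t2, T_t3] M (Nat.sub (T_t2 u) (Nat.mod (T_t2 u) M)) (Nat.mod (T_t2 u) M) u) (Nat.ble (nat_lit 5) j)) (Nat.ble (nat_lit 4) j)) (Bool.rec (motive := fun _ => Bool) (Bool.rec (motive := fun _ => Bool) (lF [T_t1, T_t2, T_t1, T_t2, T_t1] M (Nat.sub (T_t2 u) (Nat.mod (T_t2 u) M)) (Nat.mod (T_t2 u) M) u) (lF1 T_t2 M (Nat.sub (T_t2 u) (Nat.mod (T_t2 u) M)) (Nat.mod (T_t2 u) M) u) (Nat.ble (nat_lit 7) j)) (dp_t2_1 j u) (Nat.ble (nat_lit 8) j)) (Nat.ble (nat_lit 6) j)) (Nat.ble (nat_lit 3) j)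
noncomputable def chk_t2 (j u : ℕ) : Bool :=
  Bool.rec (motive := fun _ => Bool) (disp_t2 j u) (Nat.ble (Nat.succ (MG u)) A) (Nat.ble A (T_t2 u))
noncomputable def dp_t3_0 (j u : ℕ) : Bool :=
  Bool.rec (motive := fun _ => Bool) (lF [T_t4, T_t3, T_w, T_t4] M (Nat.sub (T_t3 u) (Nat.mod (T_t3 u) M)) (Nat.mod (T_t3 u) M) u) (lF [T_t1, T_t3, T_w, T_t1] M (Nat.sub (T_t3 u) (Nat.mod (T_t3 u) M)) (Nat.mod (T_t3 u) M) u) (Nat.ble (nat_lit 9) j)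
noncomputable def dp_t3_1 (j u : ℕ) : Bool :=
  Bool.rec (motive := fun _ => Bool) (lH [] [] M (Nat.sub (T_t3 u) (Nat.mod (T_t3 u) M)) (Nat.mod (T_t3 u) M) u) (dp_t3_0 j u) (Nat.ble (nat_lit 8) j)
noncomputable def dp_t3_2 (j u : ℕ) : Bool :=
  Bool.rec (motive := fun _ => Bool) (lF [T_t2, T_t3, T_t2, T_t3, T_t2] M (Nat.sub (T_t3 u) (Nat.mod (T_t3 u) M)) (Nat.mod (T_t3 u) M) u) (lF [T_t5, T_t3, T_w, T_t5] M (Nat.sub (T_t3 u) (Nat.mod (T_t3 u) M)) (Nat.mod (T_t3 u) M) u) (Nat.ble (nat_lit 12) j)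
noncomputable def dp_t3_3 (j u : ℕ) : Bool :=
  Bool.rec (motive := fun _ => Bool) (lF [T_t0, T_t3, T_w, T_t0] M (Nat.sub (T_t3 u) (Nat.mod (T_t3 u) M)) (Nat.mod (T_t3 u) M) u) (dp_t3_2 j u) (Nat.ble (nat_lit 11) j)
noncomputable def dp_t3_4 (j u : ℕ) : Bool :=
  Bool.rec (motive := fun _ => Bool) (Bool.rec (motive := fun _ => Bool) (lF [T_w, T_t0, T_t3, T_t0] M (Nat.sub (T_t3 u) (Nat.mod (T_t3 u) M)) (Nat.mod (T_t3 u) M) u) (Bool.rec (motive := fun _ => Bool) (lF [T_w, T_t5, T_t3, T_t5] M (Nat.sub (T_t3 u) (Nat.mod (T_t3 u) M)) (Nat.mod (T_t3 u) M) u) (lF1 T_t3 M (Nat.sub (T_t3 u) (Nat.mod (T_t3 u) M)) (Nat.mod (T_t3 u) M) u) (Nat.ble (nat_lit 6) j)) (Nat.ble (nat_lit 5) j)) (Bool.rec (motive := fun _ => Bool) (dp_t3_1 j u) (dp_t3_3 j u) (Nat.ble (nat_lit 10) j)) (Nat.ble (nat_lit 7) j)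
noncomputable def disp_t3 (j u : ℕ) : Bool :=
  Bool.rec (motive := fun _ => Bool) (Bool.rec (motive := fun _ => Bool) (Bool.rec (motive := fun _ => Bool) (lDef P (nat_lit 3) (Nat.mod (T_t3 u) M) u) (lDef P (nat_lit 3) u (Nat.mod (T_t3 u) M)) (Nat.ble (nat_lit 1) j)) (Bool.rec (motive := fun _ => Bool) (lF [T_w, T_t4, T_t3, T_t4] M (Nat.sub (T_t3 u) (Nat.mod (T_t3 u) M)) (Nat.mod (T_t3 u) M) u) (lF [T_w, T_t1, T_t3, T_t1] M (Nat.sub (T_t3 u) (Nat.mod (T_t3 u) M)) (Nat.mod (T_t3 u) M) u) (Nat.ble (nat_lit 3) j)) (Nat.ble (nat_lit 2) j)) (dp_t3_4 j u) (Nat.ble (nat_lit 4) j)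
noncomputable def chk_t3 (j u : ℕ) : Bool :=
  Bool.rec (motive := fun _ => Bool) (disp_t3 j u) (Nat.ble (Nat.succ (MG u)) A) (Nat.ble A (T_t3 u))
noncomputable def dp_t4_0 (j u : ℕ) : Bool :=
  Bool.rec (motive := fun _ => Bool) (lH [] [] M (Nat.sub (T_t4 u) (Nat.mod (T_t4 u) M)) (Nat.mod (T_t4 u) M) u) (lF [T_t5, T_t4, T_t5, T_t4, T_t5] M (Nat.sub (T_t4 u) (Nat.mod (T_t4 u) M)) (Nat.mod (T_t4 u) M) u) (Nat.ble (nat_lit 7) j)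
noncomputable def disp_t4 (j u : ℕ) : Bool :=
  Bool.rec (motive := fun _ => Bool) (Bool.rec (motive := fun _ => Bool) (lDef P (nat_lit 4) (Nat.mod (T_t4 u) M) u) (lDef P (nat_lit 4) u (Nat.mod (T_t4 u) M)) (Nat.ble (nat_lit 1) j)) (Bool.rec (motive := fun _ => Bool) (Bool.rec (motive := fun _ => Bool) (lF [T_t0, T_w, T_t4, T_t0] M (Nat.sub (T_t4 u) (Nat.mod (T_t4 u) M)) (Nat.mod (T_t4 u) M) u) (lF [T_t1, T_t4, T_t1, T_t4, T_t1] M (Nat.sub (T_t4 u) (Nat.mod (T_t4 u) M)) (Nat.mod (T_t4 u) M) u) (Nat.ble (nat_lit 3) j)) (Bool.rec (motive := fun _ => Bool) (lF [T_t2, T_w, T_t4, T_t2] M (Nat.sub (T_t4 u) (Nat.mod (T_t4 u) M)) (Nat.mod (T_t4 u) M) u) (Bool.rec (motive := fun _ => Bool) (lF [T_t3, T_w, T_t4, T_t3] M (Nat.sub (T_t4 u) (Nat.mod (T_t4 u) M)) (Nat.mod (T_t4 u) M) u) (dp_t4_0 j u) (Nat.ble (nat_lit 6) j)) (Nat.ble (nat_lit 5)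 j)) (Nat.ble (nat_lit 4) j)) (Nat.ble (nat_lit 2) j)
noncomputable def chk_t4 (j u : ℕ) : Bool :=
  Bool.rec (motive := fun _ => Bool) (disp_t4 j u) (Nat.ble (Nat.succ (MG u)) A) (Nat.ble A (T_t4 u))
noncomputable def disp_t5 (j u : ℕ) : Bool :=
  Bool.rec (motive := fun _ => Bool) (Bool.rec (motive := fun _ => Bool) (lDef P (nat_lit 5) (Nat.mod (T_t5 u) M) u) (lDef P (nat_lit 5) u (Nat.mod (T_t5 u) M)) (Nat.ble (nat_lit 1) j)) (Bool.rec (motive := fun _ => Bool) (Bool.rec (motive := fun _ => Bool) (lF [T_t1, T_w, T_t5, T_t1] M (Nat.sub (T_t5 u) (Nat.mod (T_t5 u) M)) (Nat.mod (T_t5 u) M) u) (lF [T_t0, T_w, T_t5, T_t0] M (Nat.sub (T_t5 u) (Nat.mod (T_t5 u) M)) (Nat.mod (T_t5 u) M) u) (Nat.ble (nat_lit 3) j)) (Bool.rec (motive := fun _ => Bool) (lF [T_t2, T_w, T_t5, T_t2] M (Nat.sub (T_t5 u) (Nat.mod (T_t5 u) M)) (Nat.mod (T_t5 u) M)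 u) (Bool.rec (motive := fun _ => Bool) (lF [T_t4, T_t5, T_t4, T_t5, T_t4] M (Nat.sub (T_t5 u) (Nat.mod (T_t5 u) M)) (Nat.mod (T_t5 u) M) u) (lF [T_t3, T_w, T_t5, T_t3] M (Nat.sub (T_t5 u) (Nat.mod (T_t5 u) M)) (Nat.mod (T_t5 u) M) u) (Nat.ble (nat_lit 6) j)) (Nat.ble (nat_lit 5) j)) (Nat.ble (nat_lit 4) j)) (Nat.ble (nat_lit 2) j)
noncomputable def chk_t5 (j u : ℕ) : Bool :=
  Bool.rec (motive := fun _ => Bool) (disp_t5 j u) (Nat.ble (Nat.succ (MG u)) A) (Nat.ble A (T_t5 u))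
noncomputable def dp_w_0 (j u : ℕ) : Bool :=
  Bool.rec (motive := fun _ => Bool) (lF [T_t4, T_t0, T_t4, T_t0] M (Nat.sub (T_w u) (Nat.mod (T_w u) M)) (Nat.mod (T_w u) M) u) (lF [T_t0, T_t5, T_t0, T_t5] M (Nat.sub (T_w u) (Nat.mod (T_w u) M)) (Nat.mod (T_w u) M) u) (Nat.ble (nat_lit 7) j)
noncomputable def disp_w (j u : ℕ) : Bool :=
  Bool.rec (motive := fun _ => Bool) (Bool.rec (motive := fun _ => Bool) (lF3 T_t4 T_w T_t4 M (Nat.sub (T_w u) (Nat.mod (T_w u) M)) (Nat.mod (T_w u) M) u) (Bool.rec (motive := fun _ => Bool) (lF3 T_t5 T_w T_t5 M (Nat.sub (T_w u) (Nat.mod (T_w u) M)) (Nat.mod (T_w u) M) u) (lF3 T_t1 T_w T_t1 M (Nat.sub (T_w u) (Nat.mod (T_w u) M)) (Nat.mod (T_w u) M) u) (Nat.ble (nat_lit 2) j)) (Nat.ble (nat_lit 1) j)) (Bool.rec (motive := fun _ => Bool) (lF3 T_t2 T_w T_t2 M (Nat.sub (T_w u) (Nat.mod (T_w u) M)) (Nat.mod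 (T_w u) M) u) (Bool.rec (motive := fun _ => Bool) (lF3 T_t3 T_w T_t3 M (Nat.sub (T_w u) (Nat.mod (T_w u) M)) (Nat.mod (T_w u) M) u) (Bool.rec (motive := fun _ => Bool) (lF3 T_t0 T_w T_t0 M (Nat.sub (T_w u) (Nat.mod (T_w u) M)) (Nat.mod (T_w u) M) u) (dp_w_0 j u) (Nat.ble (nat_lit 6) j)) (Nat.ble (nat_lit 5) j)) (Nat.ble (nat_lit 4) j)) (Nat.ble (nat_lit 3) j)
noncomputable def chk_w (j u : ℕ) : Bool :=
  Bool.rec (motive := fun _ => Bool) (disp_w j u) (Nat.ble (Nat.succ (MG u)) A) (Nat.ble A (T_w u))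
noncomputable def chkM (u : ℕ) : Bool := Nat.ble A (MG u)
noncomputable def chkN (u : ℕ) : Bool :=
  band (chk_t0 (Nat.land (Nat.shiftRight (RS u) (nat_lit 0)) (nat_lit 15)) u) (band (chk_t1 (Nat.land (Nat.shiftRight (RS u) (nat_lit 4)) (nat_lit 15)) u) (band (chk_t2 (Nat.land (Nat.shiftRight (RS u) (nat_lit 8)) (nat_lit 15)) u) (band (chk_t3 (Nat.land (Nat.shiftRight (RS u) (nat_lit 12)) (nat_lit 15)) u) (band (chk_t4 (Nat.land (Nat.shiftRight (RS u) (nat_lit 16)) (nat_lit 15)) u) (band (chk_t5 (Nat.land (Nat.shiftRight (RS u) (nat_lit 20)) (nat_lit 15)) u) (band (chk_w (Nat.land (Nat.shiftRight (RS u) (nat_lit 24)) (nat_lit 15)) u) (chkM u)))))))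
noncomputable def chkP (u : ℕ) : Bool := Bool.rec (motive := fun _ => Bool) (chkN u) true (Nat.ble M u)
noncomputable def liveP (u : ℕ) : Bool := Bool.rec (motive := fun _ => Bool) (Nat.ble A (MG u)) false (Nat.ble M u)
end H34.TCS6B
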