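import Mathlib.Init
set_option autoImplicit false
set_option maxRecDepth 100000
set_option linter.all false
namespace H34.TCS6B
noncomputable def T_t0_0 (i : Nat) : Nat := Nat.land (Nat.shiftRight (nat_lit 0x236869fe785c76a5c5045a704d8a625525b1354d118454fb3f0c237803010891481b) (Nat.mul (nat_lit 10) (Nat.land i (nat_lit 2047)))) (nat_lit 1023)
noncomputable abbrev T_t0 : Nat → Nat := T_t0_0
noncomputable def T_t1_0 (i : Nat) : Nat := Nat.land (Nat.shiftRight (nat_lit 0x23686817061c67158c6a1a903d8a045525b150464fc4600637c08308a6008032201b) (Nat.mul (nat_lit 10) (Nat.land i (nat_lit 2047)))) (nat_lit 1023)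
noncomputable abbrev T_t1 : Nat → Nat := T_t1_0
noncomputable def T_t2_0 (i : Nat) : Nat := Nat.land (Nat.shiftRight (nat_lit 0x236060197f5c6781a96a18a62d71545525b80a4d00c4c8c537c0400c06014a42201b) (Nat.mul (nat_lit 10) (Nat.land i (nat_lit 2047)))) (nat_lit 1023)
noncomputable abbrev T_t2 : Nat → Nat := T_t2_0
noncomputable def T_t3_0 (i : Nat) : Nat := Nat.land (Nat.shiftRight (nat_lit 0x1906a197f5e1781c46a18c62d6d5b9544d0e4544080180a0140901cdc300a42201b) (Nat.mul (nat_lit 10) (Nat.land i (nat_lit 2047)))) (nat_lit 1023)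
noncomputable abbrev T_t3 : Nat → Nat := T_t3_0
noncomputable def T_t4_0 (i : Nat) : Nat := Nat.land (Nat.shiftRight (nat_lit 0x21b7fde30541405c16635a75c18a031370280f0200d4c80b37cf9308c1294010081b) (Nat.mul (nat_lit 10) (Nat.land i (nat_lit 2047)))) (nat_lit 1023)
noncomputable abbrev T_t4 : Nat → Nat := T_t4_0
noncomputable def T_t5_0 (i : Nat) : Nat := Nat.land (Nat.shiftRight (nat_lit 0x2518d6197f59004c110540f0500d0480b0416b0394e4c91637cf9308c12943800001) (Nat.mul (nat_lit 10) (Nat.land i (nat_lit 2047)))) (nat_lit 1023)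
noncomputable abbrev T_t5 : Nat → Nat := T_t5_0
noncomputable def T_w_0 (i : Nat) : Nat := Nat.land (Nat.shiftRight (nat_lit 0x21b7fde371dab6a98e635715c15454d374d935465183f0fb37cde308c1294891b436) (Nat.mul (nat_lit 10) (Nat.land i (nat_lit 2047)))) (nat_lit 1023)
noncomputable abbrev T_w : Nat → Nat := T_w_0
noncomputable def P_0 (i : Nat) : Nat := Nat.land (Nat.shiftRight (nat_lit 0x64f0571aa5126b15883d5e2d5622d548a24220cc661299086430108500a00) (Nat.mul (nat_lit 9) (Nat.land i (nat_lit 2047)))) (nat_lit 511)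
noncomputable abbrev P : Nat → Nat := P_0
noncomputable def MG_0 (i : Nat) : Nat := Nat.land (Nat.shiftRight (nat_lit 0x3fffffffffffffffffffffffffffffffffffffffffffffffffffffffffffffffffff) (Nat.mul (nat_lit 10) (Nat.land i (nat_lit 2047)))) (nat_lit 1023)
noncomputable abbrev MG : Nat → Nat := MG_0
noncomputable def RS_0 (i : Nat) : Nat := Nat.land (Nat.shiftRight (nat_lit 0x46515013440140223303603142220512473110421711033125024255114576020336341156a010012420117c3170012701340b140001647a420100143212622200636465150133201203440142532a0552239034051892371053196067888) (Nat.mul (nat_lit 28) (Nat.land i (nat_lit 1023)))) (nat_lit 268435455)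
noncomputable abbrev RS : Nat → Nat := RS_0
noncomputable def MR_0 (i : Nat) : Nat := Nat.land (Nat.shiftRight (nat_lit 0x0) (Nat.mul (nat_lit 1) (Nat.land i (nat_lit 32767)))) (nat_lit 1)
noncomputable abbrev MR : Nat → Nat := MR_0
/-- number of nodes -/
abbrev M : Nat := 27
/-- absent threshold -/
abbrev A : Nat := 1023
end H34.TCS6B
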